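import Cfsg.Agent.H97.GaMain
import Cfsg.Agent.H97.GaFix
import Cfsg.Agent.H15.Pairs

/-! The Griess algebra: weight vectors and irreducibility of the module of degree 196883. -/

set_option autoImplicit false
set_option linter.unusedSectionVars false

namespace Cfsg.Agent.H97.GA.Np

open H15 Matrix
open scoped Kronecker Classical

attribute [-simp] Fintype.sum_option Fintype.prod_option

variable {F : Type*} [Field F] [Big F]

/-- linear maps that preserve both forms -/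
def Pr (f : B F →ₗ[F] B F) : Prop := ∀ b, Nf (f b) = Nf b ∧ Phi (f b) = Phi b

variable (F) in
/-- the weight vector of a pair of minimal vectors -/
noncomputable def xr (r : Vec) : B F := mk 0 (del r) 0

theorem sM_xr (r : Vec) : sM (xr F r) = 0 := sM_mk transpose_zero _ _
theorem uu_xr (r : Vec) : uu (xr F r) = 0 := rfl
theorem ph_xr (r : Vec) {v : Vec} (hv : IsMin v) : ph (xr F r) v = del r v := Cen1.ph_del r v hv
theorem xr_neg (r : Vec) : xr F (-r) = xr F r := by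
  rw [xr, xr, show (del (-r) : Vec → F) = del r from funext fun v => by simp only [del, neg_neg, or_comm]]
theorem del_self (r : Vec) : (del r r : F) = 1 := if_pos (.inl rfl)

theorem pr_z : Pr (zL F) := zL_pres
theorem pr_x {v : Vec} (hv : v ∈ leechLattice) : Pr (xL F v) := xL_pres hv
theorem pr_sig : Pr (sig : B F →ₗ[F] B F) := fun b => by
  obtain ⟨h1, h2, h3, h4, h5, h6, h7⟩ := comp_sig b
  rw [Nf_eq, Nf_eq b, Phi_eq, Phi_eq b, h1, h2, h3, h4, h5, h6, h7, tt_sig]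
  exact ⟨NC_sig _ _ _ _ (fun _ => tg_tt (ev_ph b)) _ _ _, PC_sig _ _ _ _ (fun _ => tg_tt (ev_ph b)) _ _ _⟩

/-- the matrix of an element of `Co0` -/
def Mat (g : Co0) (G : Matrix GolayPt GolayPt F) : Prop :=
  Gᵀ * G = 1 ∧ ∀ v ∈ leechLattice, G *ᵥ vF F v = vF F (gV g v)

theorem act (g : Co0) : ∃ (f : B F →ₗ[F] B F) (G : Matrix GolayPt GolayPt F), Pr f ∧ Mat g G ∧
    (∀ b, sM (f b) = G * sM b * Gᵀ) ∧ (∀ s, sᵀ = s → f (mk s 0 0) = mk (G * s * Gᵀ) 0 0) ∧
    ∀ r, IsMin r → ∃ ε, f (xr F r) = chi F ε • xr F (gV g r) := by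
  obtain ⟨A, η, hA, h⟩ := exists_rep (F := F) g
  obtain ⟨G, hG, hv⟩ := exists_gM (F := F) g
  let f : B F →ₗ[F] B F :=
    { toFun := fun b => mk (G * sM b * Gᵀ) (fun v => chi F (η (gV g⁻¹ v)) * ph b (gV g⁻¹ v))
        ((A ⊗ₖ G) *ᵥ uu b)
      map_add' := fun b c => by
        rw [← mk_add, uu_add, mulVec_add, sM_add, Matrix.mul_add, Matrix.add_mul]
        exact congrArg (mk _ · _) (funext fun v => by simp only [ph_add, mul_add, Pi.add_apply])
      map_smul' := fun t b => by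
        rw [RingHom.id_apply, ← mk_smul, uu_smul, mulVec_smul, sM_smul, Matrix.mul_smul, Matrix.smul_mul]
        exact congrArg (mk _ · _) (funext fun v => by
          simp only [ph_smul, Pi.smul_apply, smul_eq_mul]; ring) }
  have h0 : ∀ b, f b = mk (G * sM b * Gᵀ) (fun v => chi F (η (gV g⁻¹ v)) * ph b (gV g⁻¹ v))
    ((A ⊗ₖ G) *ᵥ uu b) := fun _ => rfl
  have hs : ∀ s : Matrix GolayPt GolayPt F, sᵀ = s → (G * s * Gᵀ)ᵀ = G * s * Gᵀ := fun s e => by
    rw [transpose_mul, transpose_mul, transpose_transpose, e, Matrix.mul_assoc]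
  have h1 : ∀ b, sM (f b) = G * sM b * Gᵀ := fun b => by rw [h0, sM_mk (hs _ (sM_symm b))]
  have h2 : ∀ b v, ph (f b) v = chi F (η (gV g⁻¹ v)) * ph b (gV g⁻¹ v) := fun b v => by
    by_cases k : IsMin v
    · rw [h0, ph_mk _ (fun w hw => by rw [gV_neg, ph_neg, eta_neg hA h (gV_mem g⁻¹ hw.1)]) _ k]
    · rw [ph_of_not _ k, ph_of_not _ (mt (isMin_gV _).1 k), mul_zero]
  have h3 : ∀ b, uu (f b) = (A ⊗ₖ G) *ᵥ uu b := fun b => rfl
  refine ⟨f, G, fun b => pres_of hA h hG hv (h1 b) (fun v => by rw [h2, gV_inv_gV]) (h3 b), ⟨hG, hv⟩, h1,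
    fun s e => B_ext (by rw [h1, sM_mk e, sM_mk (hs s e)])
      (fun v _ => by rw [h2, ph_mk_zero, ph_mk_zero, mul_zero]) (by rw [h3, uu_mk, uu_mk, mulVec_zero]),
    fun r hr => ⟨η r, B_ext (by rw [h1, sM_smul, sM_xr, sM_xr, Matrix.mul_zero, Matrix.zero_mul, smul_zero])
      (fun v k => ?_) (by rw [h3, uu_smul, uu_xr, uu_xr, mulVec_zero, smul_zero])⟩⟩
  obtain ⟨v, rfl⟩ : ∃ w, v = gV g w := ⟨_, (gV_gV_inv g v).symm⟩
  rw [h2, gV_inv_gV, ph_smul, ph_xr _ k, ph_xr _ ((isMin_gV g).1 k)]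
  by_cases c : v = r ∨ v = -r
  · rcases c with rfl | rfl
    · rw [del_self, del_self]
    · rw [gV_neg, del_neg, del_neg, del_self, del_self, eta_neg hA h hr.1]
  · rw [del, del, if_neg c, if_neg, mul_zero, mul_zero]
    refine fun j => c (j.imp (fun j => ?_) fun j => ?_)
    · rw [← gV_inv_gV g v, j, gV_inv_gV]
    · rw [← gV_inv_gV g v, j, gV_neg, gV_inv_gV]

theorem dec (b : B F) :
    b = mk (sM b) 0 0 + ∑ t ∈ M2, (2⁻¹ * ph b t) • xr F t + mk 0 0 (uu b) := by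
  have s1 := map_sum (AddMonoidHom.mk' (sM (R := F)) sM_add) (fun t => (2⁻¹ * ph b t) • xr F t) M2
  have s2 := fun v => map_sum (AddMonoidHom.mk' (fun b : B F => ph b v) fun b c => ph_add b c v)
    (fun t => (2⁻¹ * ph b t) • xr F t) M2
  have s3 := map_sum (AddMonoidHom.mk' (uu (R := F)) uu_add) (fun t => (2⁻¹ * ph b t) • xr F t) M2
  simp only [AddMonoidHom.mk'_apply, sM_smul, uu_smul, ph_smul, sM_xr, uu_xr, smul_zero,
    Finset.sum_const_zero] at s1 s2 s3
  refine B_ext ?_ (fun v hv => ?_) ?_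
  · rw [sM_add, sM_add, s1, sM_mk (sM_symm b), sM_mk transpose_zero, add_zero, add_zero]
  · rw [ph_add, ph_add, s2, ph_mk_zero, ph_mk_zero, add_zero, zero_add,
      Finset.sum_congr rfl (g := fun t => 2⁻¹ * ph b t * del v t) fun t _ => by
        rw [ph_xr _ hv]; simp only [del, eq_comm (a := t), eq_neg_iff_add_eq_zero, neg_eq_iff_add_eq_zero, add_comm t],
      sum_del hv, ph_neg]
    have := two_ne (F := F)
    field_simp; ring
  · rw [uu_add, uu_add, s3, uu_mk, uu_mk, add_zero, zero_add]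

theorem mk_zero : (mk 0 0 0 : B F) = 0 :=
  B_ext (sM_mk transpose_zero _ _) (fun v _ => by rw [ph_mk_zero, ph_zero]) rfl

section
variable {M : Type*} [AddCommGroup M] [Module F M] (l : B F →ₗ[F] M)

theorem ext0 (hX : ∀ r, IsMin r → l (xr F r) = 0) {b : B F} (hS : l (mk (sM b) 0 0) = 0)
    (hU : l (mk 0 0 (uu b)) = 0) : l b = 0 := by
  rw [dec b, map_add, map_add, hS, hU, map_sum, Finset.sum_eq_zero fun t ht => by
    rw [map_smul, hX t (mem_M2.1 ht), smul_zero], add_zero, add_zero]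

theorem extX (hX : ∀ r, IsMin r → l (xr F r) = 0) {b : B F} (h : sM b = 0 ∧ uu b = 0) : l b = 0 :=
  ext0 l hX (by rw [h.1, mk_zero, map_zero]) (by rw [h.2, mk_zero, map_zero])

end

theorem xL_xr {v r : Vec} (hv : v ∈ leechLattice) : xL F v (xr F r) = chi F (ip v r) • xr F r :=
  B_ext (by rw [sM_xL, sM_smul, sM_xr, smul_zero]) (fun w hw => by
    rw [ph_xL hv, ph_smul, ph_xr _ hw, del]
    split_ifs with c
    · rcases c with rfl | rfl
      exacts [rfl, by rw [ip_neg hv (neg_mem_iff.1 hw.1)]]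
    · rw [mul_zero, mul_zero]) (by rw [uu_xL, uu_smul, uu_xr, mulVec_zero, smul_zero])
theorem xL_S {v : Vec} (hv : v ∈ leechLattice) (s : Matrix GolayPt GolayPt F) :
    xL F v (mk s 0 0) = mk s 0 0 :=
  B_ext (sM_xL _ _) (fun w _ => by rw [ph_xL hv, ph_mk_zero, mul_zero]) (by rw [uu_xL, uu_mk, mulVec_zero])
theorem zL_ev {b : B F} (h : uu b = 0) : zL F b = b :=
  B_ext (sM_zL b) (fun v _ => ph_zL b v) (by rw [uu_zL, h, neg_zero])
theorem zL_U (u : Cw × GolayPt → F) : zL F (mk 0 0 u) = (-1 : F) • mk 0 0 u :=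
  B_ext (by rw [sM_zL, sM_smul, sM_mk transpose_zero, smul_zero])
    (fun v _ => by rw [ph_zL, ph_smul, ph_mk_zero, mul_zero]) (by rw [uu_zL, uu_smul, neg_one_smul])
theorem uu_xL_lam (i : GolayPt) (b : B F) (e : Cw) (k : GolayPt) :
    uu (xL F (lam i) b) (e, k) = chi F ((e : Wd) i) * uu b (e, k) := by
  rw [uu_xL, XV_lam, ← diagonal_one, diagonal_kronecker_diagonal, mulVec_diagonal, mul_one]

theorem exists_ip {v : Vec} (hv : v ∈ leechLattice) (h : ¬ ∃ w ∈ leechLattice, v = w + w) :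
    ∃ w ∈ leechLattice, ip w v = 1 := by
  by_contra c
  exact h (ip_nondeg hv fun w hw => (zmod2_cases _).resolve_right fun e => c ⟨w, hw, (ip_comm w v).trans e⟩)

/-- a matrix that is diagonal in many frames is scalar -/
theorem scal {D : Matrix GolayPt GolayPt F} {o : Cw} (ho : o ∈ Oc) (h0 : ∀ i j, i ≠ j → D i j = 0)
    (h : ∀ g : Co0, gV g (pT o 0) none = 2 → ∃ G : Matrix GolayPt GolayPt F, Mat g G ∧ ∀ i : GolayPt, i ≠ none → (G * D * Gᵀ) i none = 0)
    (ht : trace D = 0) : D = 0 := by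
  have hr : IsMin (pT o 0) := (isMin_pT ho).2 (zero_dotProduct _)
  have n4 : (4 : F) ≠ 0 := by simpa using big_ne (F := F) 4
  have k1 : ∀ u ∈ leechLattice, sqNorm u = 64 → dotInt u (pT o 0) = 16 → ∃ c : F, ∀ i, D i i * u i = c * u i := by
    intro u hu h1 h2
    obtain ⟨g, hg⟩ := trans64 ⟨u, hu⟩ (e8 none) h1 (sqNorm_e8 none)
    have e1 : gV g u = e8 none := (gV_coe g ⟨u, hu⟩).trans (congrArg _ hg)
    obtain ⟨G, ⟨a1, a2⟩, a3⟩ := h g (by
      have := dot_gV g hu hr.1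
      rw [e1, h2, dot_comm, dot_e8] at this
      omega)
    have e2 : G *ᵥ vF F u = Pi.single none 8 := by
      rw [a2 u hu, e1]; funext k; simp only [vF, e8_val, Pi.single_apply]; split_ifs <;> simp
    have e3 : (G * D * Gᵀ) *ᵥ (G *ᵥ vF F u) = (G * D * Gᵀ) none none • (G *ᵥ vF F u) := by
      rw [e2]; funext k
      by_cases c : k = none
      · simp [c, mul_comm]
      · simp [c, a3 k c]
    have e4 := congrArg (Gᵀ *ᵥ ·) e3
    simp only [mulVec_smul, mulVec_mulVec, ← Matrix.mul_assoc, a1, Matrix.one_mul, one_mulVec] at e4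
    rw [Matrix.mul_assoc, a1, Matrix.mul_one] at e4
    refine ⟨(G * D * Gᵀ) none none, fun i => ?_⟩
    have := congrFun e4 i
    rwa [mulVec, dotProduct, Finset.sum_eq_single i (fun j _ c => by rw [h0 i j c.symm, zero_mul])
      (fun c => absurd (Finset.mem_univ i) c)] at this
  have c1 : (support₂ (o : Wd)).card = 8 := mem_Oc.1 ho
  have c2 : (support₂ (o : Wd))ᶜ.card = 16 := by rw [Finset.card_compl, c1, card_pt]
  have k2 : ∀ i ∈ support₂ (o : Wd), ∀ k ∈ (support₂ (o : Wd))ᶜ, D i i = D k k := fun i hi k hk => by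
    obtain ⟨j, hj, ji⟩ := Finset.exists_mem_ne (by omega) i (s := support₂ (o : Wd))
    obtain ⟨l, hl, lk⟩ := Finset.exists_mem_ne (by omega) k (s := (support₂ (o : Wd))ᶜ)
    have ne : ∀ {a b}, a ∈ support₂ (o : Wd) → b ∈ (support₂ (o : Wd))ᶜ → a ≠ b := fun ha hb e =>
      Finset.mem_compl.1 hb (e ▸ ha)
    have p1 : ∀ {a}, a ∈ support₂ (o : Wd) → pT o 0 a = 2 := fun ha => by
      rw [pT, Inva.eq_one_of_mem ha]; rfl
    have p2 : ∀ {a}, a ∈ (support₂ (o : Wd))ᶜ → pT o 0 a = 0 := fun ha => by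
      rw [pT, Inva.eq_zero_of_not_mem (Finset.mem_compl.1 ha)]; rfl
    obtain ⟨c, hc⟩ := k1 (vec (i, 0) + vec (j, 0) + (vec (k, 0) + vec (l, 0)))
      (add_mem (vec_mem _ _) (vec_mem _ _)) (by
        rw [sqNorm_add, (isMin_vec.2 ji.symm).2, (isMin_vec.2 lk.symm).2, dot_add_left, dot_vec, dot_vec]
        simp [vec_apply, ne hi hk, ne hi hl, ne hj hk, ne hj hl])
      (by simp only [dot_add_left, dot_vec, p1 hi, p1 hj, p2 hk, p2 hl, chi_zero]; norm_num)
    have a := hc i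
    have b := hc k
    simp [vec_apply, ne hi hk, ne hi hl, ne hj hk, ji.symm, lk.symm, (ne hi hk).symm, (ne hj hk).symm,
      chi_zero, n4] at a b
    rw [a, b]
  obtain ⟨i, hi⟩ := Finset.card_pos.1 (show 0 < (support₂ (o : Wd)).card by omega)
  obtain ⟨k, hk⟩ := Finset.card_pos.1 (show 0 < (support₂ (o : Wd))ᶜ.card by omega)
  have k3 : ∀ j, D j j = D i i := fun j => by
    by_cases c : j ∈ support₂ (o : Wd)
    · rw [k2 j c k hk, k2 i hi k hk]
    · rw [k2 i hi j (Finset.mem_compl.2 c)]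
  simp only [trace, diag, k3, Finset.sum_const, Finset.card_univ, card_pt, nsmul_eq_mul] at ht
  ext a b
  by_cases c : a = b
  · rw [c, k3, (mul_eq_zero.1 ht).resolve_left (big_ne 24)]; rfl
  · exact h0 a b c

theorem exists_Oc : ∃ o, o ∈ Oc := by
  obtain ⟨r, hr⟩ : ∃ r, r ∈ H14.rows := List.exists_mem_of_ne_nil _ (by decide)
  obtain ⟨⟨w, hw, e⟩, h⟩ := H14.rows_octads r hr
  exact ⟨⟨w, hw⟩, mem_Oc.2 ((congrArg Finset.card e).trans h)⟩

section
variable {W : Submodule F (B F)} (hW : ∀ h, Pr h → ∀ w ∈ W, h w ∈ W)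
include hW

theorem xr_mem {w : B F} (hw : w ∈ W) {r : Vec} (h : ph w r ≠ 0) {t : Vec} (ht : IsMin t) : xr F t ∈ W := by
  have hr : IsMin r := not_not.1 (mt (ph_of_not w) h)
  have h2 := two_ne (F := F)
  have key : ∀ S : Finset Vec, (∀ t ∈ S, IsMin t ∧ ¬ (t = r ∨ t = -r)) →
      ∃ w ∈ W, sM w = 0 ∧ uu w = 0 ∧ ph w r ≠ 0 ∧ ∀ t ∈ S, ph w t = 0 := fun S => by
    induction S using Finset.induction_on with
    | empty =>
      obtain ⟨v, hv, e⟩ := exists_ip hr.1 hr.not_two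
      have a : uu (w + zL F w) = 0 := by rw [uu_add, uu_zL, add_neg_cancel]
      have b := add_mem hw (hW _ pr_z _ hw)
      refine fun _ => ⟨_, add_mem b (W.smul_mem (-1) (hW _ (pr_x hv) _ b)), ?_, ?_, ?_, by simp⟩
      · rw [sM_add, sM_smul, sM_xL, neg_one_smul, add_neg_cancel]
      · rw [uu_add, uu_smul, uu_xL, a, mulVec_zero, smul_zero, add_zero]
      · rw [ph_add, ph_smul, ph_xL hv, e, chi_one, ph_add, ph_zL]
        exact fun c => h (mul_left_cancel₀ (mul_ne_zero h2 h2) (by linear_combination c))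
    | insert t S _ ih =>
      intro hS
      obtain ⟨w, b, a1, a2, a3, a4⟩ := ih fun t ht => hS t (Finset.mem_insert_of_mem ht)
      obtain ⟨k1, k2⟩ := hS t (Finset.mem_insert_self t S)
      obtain ⟨v, hv, e⟩ := exists_ip (add_mem hr.1 k1.1) (mt (min_congr hr k1) k2)
      rw [ip_add_right hr.1 k1.1 hv] at e
      refine ⟨_, add_mem b (W.smul_mem (chi F (ip v r)) (hW _ (pr_x hv) _ b)), ?_, ?_, ?_, fun s hs => ?_⟩
      · rw [sM_add, sM_smul, sM_xL, a1, smul_zero, add_zero]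
      · rw [uu_add, uu_smul, uu_xL, a2, mulVec_zero, smul_zero, add_zero]
      · rw [ph_add, ph_smul, ph_xL hv, ← mul_assoc, chi_mul_self]
        exact fun c => a3 (mul_left_cancel₀ h2 (by linear_combination c))
      · rw [ph_add, ph_smul, ph_xL hv]
        rcases Finset.mem_insert.1 hs with rfl | hs
        · rw [← mul_assoc, ← chi_add, e, chi_one, neg_one_mul, add_neg_cancel]
        · rw [a4 s hs, mul_zero, mul_zero, add_zero]
  obtain ⟨w, b, a1, a2, a3, a4⟩ := key (M2.filter fun t => ¬ (t = r ∨ t = -r)) fun t ht =>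
    ⟨mem_M2.1 (Finset.mem_filter.1 ht).1, (Finset.mem_filter.1 ht).2⟩
  have e : xr F r = (ph w r)⁻¹ • w := B_ext (by rw [sM_smul, a1, sM_xr, smul_zero]) (fun v hv => by
    rw [ph_xr _ hv, ph_smul, del]
    split_ifs with c
    · rcases c with rfl | rfl
      exacts [(inv_mul_cancel₀ a3).symm, by rw [ph_neg, inv_mul_cancel₀ a3]]
    · rw [a4 v (Finset.mem_filter.2 ⟨mem_M2.2 hv, c⟩), mul_zero]) (by rw [uu_smul, a2, uu_xr, smul_zero])
  obtain ⟨g, hg⟩ := trans32 ⟨r, hr.1⟩ ⟨t, ht.1⟩ hr.2 ht.2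
  obtain ⟨f, G, p, -, -, -, q⟩ := act (F := F) g
  obtain ⟨ε, q⟩ := q r hr
  have := W.smul_mem (chi F ε) (hW f p _ (e ▸ W.smul_mem _ b))
  rwa [q, smul_smul, chi_mul_self, one_smul,
    show gV g r = t from (gV_coe g ⟨r, hr.1⟩).trans (congrArg _ hg)] at this

theorem irr0 (hV : ∀ w ∈ W, trace (sM w) = 0) {w : B F} (hw : w ∈ W) (h : w ≠ 0) {t : Vec} (ht : IsMin t) :
    xr F t ∈ W := by
  by_contra c
  have h1 : ∀ w ∈ W, ph w = 0 := fun w hw => funext fun r => not_not.1 fun e => c (xr_mem hW hw e ht)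
  have h2 := two_ne (F := F)
  have h3 : ∀ w ∈ W, ∀ e k, uu w (e, k) + uu w (e + Om, k) = 0 := fun w hw e k => by
    have := congrFun₂ (comp_sig w).2.2.2.2.1 e k
    rw [h1 _ (hW _ pr_sig w hw), xx, Pi.zero_apply, mul_zero, zz, eq_comm] at this
    exact (mul_eq_zero.1 this).resolve_left (inv_ne_zero h2)
  have h4 : ∀ w ∈ W, ∀ i j, i ≠ j → sM w i j = 0 := fun w hw i j e => by
    have := congrFun₂ (comp_sig w).2.2.1 i j
    rw [h1 _ (hW _ pr_sig w hw), bm, am, if_neg e] at this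
    simpa using this.symm
  obtain ⟨o, ho⟩ := exists_Oc
  refine h (B_ext (scal ho (h4 w hw) (fun g _ => ?_) (hV w hw)) (fun v _ => by rw [h1 w hw, ph_zero]; rfl)
    (funext fun ⟨e, k⟩ => ?_))
  · obtain ⟨f, G, p, m, q, -⟩ := act (F := F) g
    exact ⟨G, m, fun i hi => q w ▸ h4 _ (hW f p w hw) i none hi⟩
  · have a := h3 w hw e k
    have b := h3 _ (hW _ (pr_x (lam_mem none)) w hw) e k
    rw [uu_xL_lam, uu_xL_lam, Submodule.coe_add, Pi.add_apply, Om_apply, chi_succ] at b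
    have d := chi_mul_self (F := F) ((e : Wd) none)
    exact mul_left_cancel₀ h2 (by
      rw [uu_zero, Pi.zero_apply]
      linear_combination a + chi F ((e : Wd) none) * b - (uu w (e, k) - uu w (e + Om, k)) * d)

end

variable (F) in
/-- the invariant bilinear form -/
noncomputable def NB : LinearMap.BilinForm F (B F) :=
  LinearMap.mk₂ F Nb Nb_add Nb_smul (fun a b c => by rw [Nb_comm, Nb_add, Nb_comm b, Nb_comm c])
    fun t a b => by rw [Nb_comm, Nb_smul, Nb_comm b, smul_eq_mul]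

theorem NB_apply (a b : B F) : NB F a b = Nb a b := rfl

theorem NB_nondeg : (NB F).Nondegenerate :=
  ⟨fun _ h => eq_zero_of_Nb h, fun _ h => eq_zero_of_Nb fun c => (Nb_comm _ c).trans (h c)⟩

theorem riesz (l : B F →ₗ[F] F) : ∃ c, ∀ b, Nb c b = l b :=
  ⟨((NB F).toDual NB_nondeg).symm l, fun b => LinearMap.BilinForm.apply_toDual_symm_apply (B := NB F) (hB := NB_nondeg) l b⟩

theorem Pr.inv {h : B F →ₗ[F] B F} (p : Pr h) : ∃ k, Pr k ∧ ∀ b, h (k b) = b := by
  obtain ⟨g, hg, e⟩ := exists_GG h p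
  exact ⟨(g⁻¹ : B F ≃ₗ[F] B F), (GG F).inv_mem hg, fun b => (e _).symm.trans (g.apply_symm_apply b)⟩

theorem Pr.nb {h : B F →ₗ[F] B F} (p : Pr h) (a b : B F) : Nb (h a) (h b) = Nb a b :=
  Nb_of_Nf (fun b => (p b).1) a b

theorem Pr.fix {h : B F →ₗ[F] B F} (p : Pr h) : h (eB F) = eB F := by
  obtain ⟨g, hg, e⟩ := exists_GG h p
  rw [← e, fix_eB hg]

theorem Pr.tr {h : B F →ₗ[F] B F} (p : Pr h) (b : B F) : trace (sM (h b)) = trace (sM b) := by
  obtain ⟨g, hg, e⟩ := exists_GG h p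
  rw [← e, trace_GG hg]

theorem exists_min : ∃ r, IsMin r := ⟨lam none, lam_mem _, by decide +kernel⟩

theorem Nb_xr {r : Vec} (hr : IsMin r) (b : B F) : Nb b (xr F r) = 2 * ph b r := by
  rw [Nb, sM_xr, uu_xr, Matrix.mul_zero, trace_zero, mul_zero, zero_add, dotProduct_zero, add_zero]
  exact Cen1.sum_ph_del hr _ (ph_neg b r)

/-- an invariant subspace that contains the identity and a weight vector is everything -/
theorem eq_top {W : Submodule F (B F)} (hW : ∀ h, Pr h → ∀ w ∈ W, h w ∈ W) (he : eB F ∈ W) {r : Vec}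
    (hr : IsMin r) (hx : xr F r ∈ W) : W = ⊤ := by
  by_contra c
  obtain ⟨l, l0, hl⟩ := W.exists_le_ker_of_lt_top (lt_top_iff_ne_top.2 c)
  obtain ⟨a, ha⟩ := riesz l
  let U : Submodule F (B F) := ⨅ w ∈ W, LinearMap.ker ((NB F).flip w)
  have hU : ∀ {b}, b ∈ U ↔ ∀ w ∈ W, Nb b w = 0 := by
    simp only [U, Submodule.mem_iInf, LinearMap.mem_ker]; exact Iff.rfl
  have := hU.1 (irr0 (W := U) (fun h p b hb => hU.2 fun w hw => by
      obtain ⟨k, q, e⟩ := p.inv
      rw [← e w, p.nb, hU.1 hb _ (hW k q w hw)])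
    (fun b hb => mul_left_cancel₀ two_ne (by rw [← Nb_eB, hU.1 hb _ he, mul_zero]))
    (hU.2 fun w hw => (ha w).trans (hl hw)) (fun e => l0 (LinearMap.ext fun b => by
      rw [← ha, e]; exact (NB F).map_zero₂ b)) hr) _ hx
  rw [Nb_xr hr, ph_xr _ hr, del_self, mul_one] at this
  exact two_ne this

theorem irr {W : Submodule F (B F)} (hW : ∀ h, Pr h → ∀ w ∈ W, h w ∈ W)
    (hV : W ≤ LinearMap.ker (trL F)) : W = ⊥ ∨ W = LinearMap.ker (trL F) := by
  refine or_iff_not_imp_left.2 fun c => le_antisymm hV fun b hb => ?_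
  obtain ⟨w, hw, w0⟩ := W.exists_mem_ne_zero_of_ne_bot c
  obtain ⟨r, hr⟩ := exists_min
  have := eq_top (W := W ⊔ F ∙ eB F) (fun h p w hw => by
      obtain ⟨a, ha, _, hb, rfl⟩ := Submodule.mem_sup.1 hw
      obtain ⟨t, rfl⟩ := Submodule.mem_span_singleton.1 hb
      rw [map_add, map_smul, p.fix]
      exact add_mem (Submodule.mem_sup_left (hW h p a ha)) (Submodule.mem_sup_right hb))
    (Submodule.mem_sup_right (Submodule.mem_span_singleton_self _)) hr
    (Submodule.mem_sup_left (irr0 hW hV hw w0 hr))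
  obtain ⟨a, ha, _, hb', rfl⟩ := Submodule.mem_sup.1 (this.ge (Submodule.mem_top (x := b)))
  obtain ⟨t, rfl⟩ := Submodule.mem_span_singleton.1 hb'
  rw [LinearMap.mem_ker, map_add, hV ha, map_smul, trL_eB, zero_add, smul_eq_mul] at hb
  rwa [(mul_eq_zero.1 hb).resolve_right (by simpa using big_ne (F := F) 24), zero_smul, add_zero]

end Cfsg.Agent.H97.GA.Np
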