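import Cfsg.Agent.H15.NpA

/-! The Griess algebra: uniqueness of the invariant trilinear form. -/

set_option autoImplicit false
set_option linter.unusedSectionVars false

namespace Cfsg.Agent.H97.GA.Np

open H15 Matrix
open scoped Kronecker Classical

attribute [-simp] Fintype.sum_option Fintype.prod_option

variable {F : Type*} [Field F] [Big F]

/-- invariant trilinear forms that vanish on the identity -/
structure Inv (f : B F →ₗ[F] B F →ₗ[F] B F →ₗ[F] F) : Prop where
  intro ::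
  inv : ∀ h, Pr h → ∀ a b c, f (h a) (h b) (h c) = f a b c
  e1 : ∀ b c, f (eB F) b c = 0
  e2 : ∀ a c, f a (eB F) c = 0
  e3 : ∀ a b, f a b (eB F) = 0

/-- vanishing on weight vectors -/
def X3 (f : B F →ₗ[F] B F →ₗ[F] B F →ₗ[F] F) : Prop :=
  ∀ r s t, IsMin r → IsMin s → IsMin t → f (xr F r) (xr F s) (xr F t) = 0

/-- vectors with a coordinate congruent to 2 modulo 4 -/
def Oct (r : Vec) : Prop := IsMin r ∧ ∃ k, r k % 4 = 2

theorem Oct.even {r : Vec} (h : Oct r) (i : GolayPt) : r i % 2 = 0 := by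
  obtain ⟨m, z, h1, -⟩ := (mem_leech_iff r).1 h.1.1
  obtain ⟨k, hk⟩ := h.2
  have := h1 i; have := h1 k; omega

theorem sigX {b : B F} (h1 : ∀ i, sM b i i = 0) (h2 : ∀ α β, ph b (vec α + vec β) = 0)
    (h3 : ∀ (c : Cw) i, ph b (pX c i) = 0) (h4 : ∀ e k, uu b (e + Om, k) = uu b (e, k)) :
    sM (sig b) = 0 ∧ uu (sig b) = 0 := by
  refine ⟨Matrix.ext fun i j => ?_, funext fun ⟨e, k⟩ => ?_⟩
  · simp [sM_sig, sS, h1, bm, h2]
  · simp [uu_sig, xx, ze, yy, h3, h4]

theorem Oct.sig {r : Vec} (h : Oct r) : sM (sig (xr F r)) = 0 ∧ uu (sig (xr F r)) = 0 := by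
  obtain ⟨k, hk⟩ := h.2
  have key : ∀ v : Vec, v k % 4 = 0 ∨ v k % 2 = 1 → ph (xr F r) v = 0 := fun v e => by
    by_cases c : IsMin v
    · rw [ph_xr _ c, del, if_neg]
      rintro (rfl | rfl)
      · omega
      · rw [Pi.neg_apply] at e; omega
    · exact ph_of_not _ c
  exact sigX (fun i => by rw [sM_xr]; rfl) (fun α β => key _ (.inl (vec_mod α β k)))
    (fun c i => key _ (.inr (pX_mod c i k))) fun _ _ => rfl

variable {f : B F →ₗ[F] B F →ₗ[F] B F →ₗ[F] F}

theorem Inv.sw12 (h : Inv f) : Inv f.flip :=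
  ⟨fun g p a b c => h.inv g p b a c, fun b c => h.e2 b c, fun a c => h.e1 a c, fun a b => h.e3 b a⟩
theorem Inv.sw23 (h : Inv f) : Inv (LinearMap.lflip.toLinearMap ∘ₗ f) :=
  ⟨fun g p a b c => h.inv g p a c b, fun b c => h.e1 c b, fun a c => h.e3 a c, fun a b => h.e2 a b⟩
theorem X3.sw12 (h : X3 f) : X3 f.flip := fun r s t a b c => h s r t b a c
theorem X3.sw23 (h : X3 f) : X3 (LinearMap.lflip.toLinearMap ∘ₗ f) := fun r s t a b c => h r t s a c b

theorem Inv.wt (h : Inv f) {g : B F →ₗ[F] B F} (p : Pr g) {a b c : B F} {α β γ : F} (ha : g a = α • a)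
    (hb : g b = β • b) (hc : g c = γ • c) (e : α * β * γ = -1) : f a b c = 0 := by
  have := h.inv g p a b c
  simp only [ha, hb, hc, map_smul, LinearMap.smul_apply, smul_eq_mul] at this
  exact mul_left_cancel₀ two_ne (by linear_combination -this + f a b c * e)

theorem Inv.x3 (h : Inv f) {r0 s0 : Vec} (h1 : IsMin r0) (h2 : IsMin s0) (h3 : dotInt r0 s0 = -16)
    (h4 : f (xr F r0) (xr F s0) (xr F (r0 + s0)) = 0) : X3 f := by
  have key : ∀ r s t, IsMin r → IsMin s → IsMin t → dotInt r s ≤ 0 → f (xr F r) (xr F s) (xr F t) = 0 := by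
    intro r s t hr hs ht hd
    by_cases c : ∃ w ∈ leechLattice, r + s + t = w + w
    · obtain ⟨w, hw, e⟩ := c
      have n : sqNorm (r + s) = 64 + 2 * dotInt r s := by rw [sqNorm_add, hr.2, hs.2]; ring
      have := short_congr (v := ⟨t, ht.1⟩) (y := ⟨r + s, add_mem hr.1 hs.1⟩)
        (w := ⟨w - (r + s), sub_mem hw (add_mem hr.1 hs.1)⟩)
        (Subtype.ext (show t = r + s + (w - (r + s) + (w - (r + s))) by rw [eq_sub_of_add_eq' e]; abel))
        (by rw [ht.2]; decide) (fun z => ht.not_two ⟨w, hw, by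
          rw [← e, show r + s = 0 from sqNorm_eq_zero z, zero_add]⟩) (by rw [ht.2]; decide)
        (by simp only [n]; omega)
      simp only [ht.2, n, Subtype.ext_iff] at this
      have e1 : xr F t = xr F (r + s) := by
        rcases this.2 (by decide) with k | k <;> rw [k]
        exact (xr_neg t).symm
      obtain ⟨g, g1, g2⟩ := trans_pair_m16 ⟨r, hr.1⟩ ⟨s, hs.1⟩ ⟨r0, h1.1⟩ ⟨s0, h2.1⟩ hr.2 h1.2 hs.2 h2.2
        (show dotInt r s = -16 by omega) h3
      obtain ⟨k, G, p, -, -, -, q⟩ := act (F := F) g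
      obtain ⟨ε1, q1⟩ := q r hr
      obtain ⟨ε2, q2⟩ := q s hs
      obtain ⟨ε3, q3⟩ := q (r + s) ⟨add_mem hr.1 hs.1, by omega⟩
      rw [gV_add g hr.1 hs.1] at q3
      rw [show gV g r = r0 from (gV_coe g ⟨r, hr.1⟩).trans (congrArg _ g1)] at q1 q3
      rw [show gV g s = s0 from (gV_coe g ⟨s, hs.1⟩).trans (congrArg _ g2)] at q2 q3
      rw [e1, ← h.inv k p, q1, q2, q3]
      simp only [map_smul, LinearMap.smul_apply, h4, smul_zero]
    · obtain ⟨v, hv, e⟩ := exists_ip (add_mem (add_mem hr.1 hs.1) ht.1) c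
      refine h.wt (pr_x hv) (xL_xr hv) (xL_xr hv) (xL_xr hv) ?_
      rw [← chi_add, ← chi_add, ← ip_add_right hr.1 hs.1 hv, ← ip_add_right (add_mem hr.1 hs.1) ht.1 hv, e,
        chi_one]
  intro r s t hr hs ht
  rcases le_total (dotInt r s) 0 with c | c
  · exact key r s t hr hs ht c
  · rw [← xr_neg s]
    exact key r (-s) t hr hs.neg ht (by rw [dot_neg_right]; omega)

theorem X3.ext (h : X3 f) {a b c : B F} (ha : sM a = 0 ∧ uu a = 0) (hb : sM b = 0 ∧ uu b = 0)
    (hc : sM c = 0 ∧ uu c = 0) : f a b c = 0 :=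
  extX (f a b) (fun t ht => extX ((f a).flip (xr F t)) (fun s hs =>
    extX ((f.flip (xr F s)).flip (xr F t)) (fun r hr => h r s t hr hs ht) ha) hb) hc

variable (F) in
/-- symmetrisation -/
noncomputable def symL : Matrix GolayPt GolayPt F →ₗ[F] B F where
  toFun a := mk (a + aᵀ) 0 0
  map_add' a b := by rw [← mk_add, add_zero, add_zero, transpose_add, add_add_add_comm]
  map_smul' t a := by rw [RingHom.id_apply, ← mk_smul, smul_zero, smul_zero, transpose_smul, smul_add]

theorem symL_apply (a : Matrix GolayPt GolayPt F) : symL F a = mk (a + aᵀ) 0 0 := rfl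
theorem sym_add (a : Matrix GolayPt GolayPt F) : (a + aᵀ)ᵀ = a + aᵀ := by
  rw [transpose_add, transpose_transpose, add_comm]

theorem Inv.sxx (h : Inv f) (h3 : X3 f) {o : Cw} (ho : o ∈ Oc) {s : Matrix GolayPt GolayPt F} (hs : sᵀ = s) :
    f (mk s 0 0) (xr F (pT o 0)) (xr F (pT o 0)) = 0 := by
  have hr : IsMin (pT o 0) := (isMin_pT ho).2 (zero_dotProduct _)
  have h2 := two_ne (F := F)
  let l : Vec → Matrix GolayPt GolayPt F →ₗ[F] F := fun r => ((f.flip (xr F r)).flip (xr F r)) ∘ₗ symL F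
  have l0 : ∀ r a, l r a = f (mk (a + aᵀ) 0 0) (xr F r) (xr F r) := fun _ _ => rfl
  have l1 : ∀ r a, l r a = trace (a * (of fun i j => l r (single i j 1))ᵀ) := fun r a => by
    conv_lhs => rw [matrix_eq_sum_single a]
    simp only [map_sum, trace, diag, mul_apply, transpose_apply, of_apply]
    refine Finset.sum_congr rfl fun i _ => Finset.sum_congr rfl fun j _ => ?_
    rw [← smul_eq_mul, ← map_smul, smul_single, smul_eq_mul, mul_one]
  have l2 : ∀ r, Oct r → ∀ i j, i ≠ j → l r (single i j 1) = 0 := fun r hr i j e => by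
    rw [l0, ← h.inv _ pr_sig]
    refine h3.ext (sigX (fun k => ?_) (fun _ _ => ph_mk_zero _ _ _) (fun _ _ => ph_mk_zero _ _ _)
      fun _ _ => rfl) hr.sig hr.sig
    rw [sM_mk (sym_add _), Matrix.add_apply, transpose_apply, single_apply,
      if_neg fun c => e (c.1.trans c.2.symm), add_zero]
  obtain ⟨k, hk⟩ := exists_pt ho
  have e := scal (D := of fun i j => l (pT o 0) (single i j 1)) ho (l2 _ ⟨hr, k, pT_mod4 _ hk⟩) (fun g hg => by
    obtain ⟨p, G, p1, m, -, q1, q2⟩ := act (F := F) g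
    obtain ⟨ε, q2⟩ := q2 _ hr
    refine ⟨G, m, fun i hi => ?_⟩
    have a1 : G * Gᵀ = 1 := mul_eq_one_comm.1 m.1
    have a2 := l2 _ ⟨hr.gV g, none, by rw [hg]; rfl⟩ i none hi
    have a3 : l (pT o 0) (Gᵀ * single i none 1 * G) = 0 := by
      rw [l0, ← h.inv p p1, q1 _ (sym_add _), q2, ← a2, l0]
      simp only [map_smul, LinearMap.smul_apply, smul_eq_mul, ← mul_assoc, chi_mul_self, one_mul,
        Matrix.mul_add, Matrix.add_mul, transpose_mul, transpose_transpose, a1, Matrix.one_mul]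
      simp only [Matrix.mul_assoc, a1, Matrix.mul_one]
    rw [l1, Matrix.mul_assoc, Matrix.mul_assoc, trace_mul_comm, Matrix.mul_assoc, ← trace_transpose,
      transpose_mul, transpose_single, trace_mul_single, transpose_mul, transpose_mul, transpose_transpose,
      transpose_transpose, ← Matrix.mul_assoc] at a3
    simpa using a3) (by
    have := l1 (pT o 0) 1
    rw [Matrix.one_mul, trace_transpose] at this
    rw [← this, l0, transpose_one, ← add_zero (0 : Vec → F), ← add_zero (0 : Cw × GolayPt → F), mk_add]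
    simp only [map_add, LinearMap.add_apply, show (mk 1 0 0 : B F) = eB F from rfl, h.e1, add_zero])
  have := l1 (pT o 0) ((2 : F)⁻¹ • s)
  rwa [e, transpose_zero, Matrix.mul_zero, trace_zero, l0, transpose_smul, hs, ← two_smul F, smul_smul,
    mul_inv_cancel₀ h2, one_smul] at this

theorem Inv.zero (h : Inv f) (h3 : X3 f) : f = 0 := by
  obtain ⟨o, ho⟩ := exists_Oc
  have hr : IsMin (pT o 0) := (isMin_pT ho).2 (zero_dotProduct _)
  obtain ⟨k, hk⟩ := exists_pt ho
  have hO : Oct (pT o 0) := ⟨hr, k, pT_mod4 _ hk⟩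
  have h2 := two_ne (F := F)
  generalize hx : pT o 0 = r at hr hO
  have k1 : ∀ {f}, Inv f → X3 f → ∀ s : Matrix GolayPt GolayPt F, sᵀ = s → ∀ t, IsMin t →
      f (xr F r) (mk s 0 0) (xr F t) = 0 := fun {f} h h3 s hs t ht => by
    by_cases c : t = r ∨ t = -r
    · have e : xr F t = xr F r := by rcases c with rfl | rfl; exacts [rfl, xr_neg r]
      rw [e, ← hx]
      exact h.sw12.sxx h3.sw12 ho hs
    · obtain ⟨v, hv, e⟩ := exists_ip (add_mem hr.1 ht.1) (mt (min_congr hr ht) c)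
      exact h.wt (pr_x hv) (xL_xr hv) ((xL_S hv s).trans (one_smul F _).symm) (xL_xr hv)
        (by rw [mul_one, ← chi_add, ← ip_add_right hr.1 ht.1 hv, e, chi_one])
  have k2 : ∀ {f}, Inv f → ∀ b : B F, uu b = 0 → ∀ u, f (xr F r) b (mk 0 0 u) = 0 := fun {f} h b hb u =>
    h.wt pr_z ((zL_ev (uu_xr r)).trans (one_smul F _).symm) ((zL_ev hb).trans (one_smul F _).symm) (zL_U u)
      (by rw [one_mul, one_mul])
  have k3 : ∀ u u' : Cw × GolayPt → F, (∀ e k, u (e + Om, k) = u (e, k)) → (∀ e k, u' (e + Om, k) = u' (e, k)) →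
      f (xr F r) (mk 0 0 u) (mk 0 0 u') = 0 := fun u u' a b => by
    have : ∀ u : Cw × GolayPt → F, (∀ e k, u (e + Om, k) = u (e, k)) → _ := fun u a =>
      sigX (b := mk 0 0 u) (fun i => by rw [sM_mk transpose_zero]; rfl) (fun _ _ => ph_mk_zero _ _ _)
        (fun _ _ => ph_mk_zero _ _ _) a
    rw [← h.inv _ pr_sig]
    exact h3.ext hO.sig (this u a) (this u' b)
  have k4 : ∀ {v} (hv : v ∈ leechLattice) (u u' : Cw × GolayPt → F), uu (xL F v (mk 0 0 u)) = u' →
      xL F v (mk 0 0 u) = mk 0 0 u' := fun hv u u' e =>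
    B_ext (by rw [sM_xL, sM_mk transpose_zero, sM_mk transpose_zero])
      (fun w _ => by rw [ph_xL hv, ph_mk_zero, ph_mk_zero, mul_zero]) e
  have k5 : ∀ (a c : ZMod 2) (u u' : Cw × GolayPt → F), (∀ e k, u (e + Om, k) = chi F a * u (e, k)) →
      (∀ e k, u' (e + Om, k) = chi F c * u' (e, k)) → f (xr F r) (mk 0 0 u) (mk 0 0 u') = 0 := by
    intro a c u u' b b'
    by_cases e : a + c = 1
    · have : ∀ (a : ZMod 2) (u : Cw × GolayPt → F), (∀ e k, u (e + Om, k) = chi F a * u (e, k)) →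
          xL F (e8 none : Lat) (mk 0 0 u) = chi F a • mk 0 0 u := fun a u b => by
        rw [← mk_smul, smul_zero, smul_zero]
        exact k4 (e8 none).2 _ _ (funext fun ⟨e, k⟩ => (uu_xL_e8 _ e k).trans (b e k))
      refine h.wt (pr_x (e8 none).2) (xL_xr (e8 none).2) (this a u b) (this c u' b') ?_
      rw [ip_comm, ip_e8, cast_eq (b := 0) (hO.even none), Int.cast_zero, chi_zero, one_mul, ← chi_add, e,
        chi_one]
    · rcases zmod2_cases a with rfl | rfl <;> rcases zmod2_cases c with rfl | rfl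
      · exact k3 u u' (by simpa [chi_zero] using b) (by simpa [chi_zero] using b')
      · exact absurd rfl e
      · exact absurd rfl e
      · have : ∀ u : Cw × GolayPt → F, (∀ e k, u (e + Om, k) = chi F 1 * u (e, k)) → ∀ (e : Cw) k,
            chi F (((e + Om : Cw) : Wd) none) * u (e + Om, k) = chi F ((e : Wd) none) * u (e, k) := fun u b e k => by
          rw [b, Submodule.coe_add, Pi.add_apply, Om_apply, chi_succ, chi_one]; ring
        rw [← h.inv _ (pr_x (lam_mem none)), xL_xr (lam_mem none),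
          k4 (lam_mem none) u (fun p => chi F ((p.1 : Wd) none) * u p) (funext fun ⟨e, k⟩ => uu_xL_lam _ _ e k),
          k4 (lam_mem none) u' (fun p => chi F ((p.1 : Wd) none) * u' p) (funext fun ⟨e, k⟩ => uu_xL_lam _ _ e k),
          map_smul, LinearMap.smul_apply, LinearMap.smul_apply, k3 _ _ (this u b) (this u' b'), smul_zero]
  have k6 : ∀ (l : B F →ₗ[F] F), (∀ (a : ZMod 2) (u : Cw × GolayPt → F),
      (∀ e k, u (e + Om, k) = chi F a * u (e, k)) → l (mk 0 0 u) = 0) → ∀ u, l (mk 0 0 u) = 0 := fun l hl u => by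
    have a := hl 0 (fun p => zz u p.1 p.2) fun e k => by rw [chi_zero, one_mul]; exact zz_Om u e k
    have b := hl 1 (fun p => yy u p.1 p.2) fun e k => by rw [chi_one, neg_one_mul]; exact yy_Om u e k
    have c := map_add l (mk 0 0 fun p => zz u p.1 p.2) (mk 0 0 fun p => yy u p.1 p.2)
    rw [a, b, ← mk_add, add_zero, add_zero, add_zero] at c
    rw [← c]
    congr 2
    funext ⟨e, k⟩
    simp only [Pi.add_apply, zz, yy]; field_simp; ring
  obtain ⟨v, hv, e⟩ := exists_ip hr.1 hr.not_two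
  have key : ∀ b c, f (xr F r) b c = 0 := fun b c =>
    ext0 ((f (xr F r)).flip c)
      (fun t ht => ext0 (f (xr F r) (xr F t)) (fun s hs => h3 r t s hr ht hs)
        (k1 h.sw23 h3.sw23 _ (sM_symm c) t ht) (k2 h _ (uu_xr t) _))
      (ext0 (f (xr F r) (mk (sM b) 0 0)) (k1 h h3 _ (sM_symm b))
        (h.wt (pr_x hv) (xL_xr hv) ((xL_S hv _).trans (one_smul F _).symm)
          ((xL_S hv _).trans (one_smul F _).symm) (by rw [e, chi_one, mul_one, mul_one])) (k2 h _ rfl _))
      (ext0 (f (xr F r) (mk 0 0 (uu b))) (fun t _ => k2 h.sw23 _ (uu_xr t) _) (k2 h.sw23 _ rfl _)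
        (k6 ((f (xr F r)).flip _) (fun a u hu => k6 (f (xr F r) _) (fun c u' => k5 a c u u' hu) _) _))
  refine LinearMap.ker_eq_top.1 (eq_top (fun g p a ha => LinearMap.ext₂ fun b c => ?_)
    (LinearMap.ext₂ h.e1) hr (LinearMap.ext₂ key))
  obtain ⟨k, -, e⟩ := p.inv
  rw [← e b, ← e c, h.inv g p, show f a = 0 from ha]; rfl

end Cfsg.Agent.H97.GA.Np
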