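import Cfsg.Agent.H15.NpB

/-! The Griess algebra: the module of degree 196883 and its group form a Norton pair. -/

set_option autoImplicit false
set_option linter.unusedSectionVars false

namespace Cfsg.Agent.H97.GA.Np

open H15 Matrix
open scoped Kronecker Classical

attribute [-simp] Fintype.sum_option Fintype.prod_option

/-- Norton pairs -/
def NP {F G V : Type*} [Field F] [Group G] [AddCommGroup V] [Module F V] (ρ : Representation F G V) : Prop :=
  Function.Injective ρ ∧ (∀ W : Submodule F V, (∀ g : G, W.map (ρ g) ≤ W) → W = ⊥ ∨ W = ⊤) ∧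
    (∃ B : LinearMap.BilinForm F V, B ≠ 0 ∧ (∀ u v, B u v = B v u) ∧
      ∀ (g : G) (u v : V), B (ρ g u) (ρ g v) = B u v) ∧
    ∃ m : V →ₗ[F] V →ₗ[F] V, m ≠ 0 ∧ (∀ u v, m u v = m v u) ∧
      (∀ (g : G) (u v : V), m (ρ g u) (ρ g v) = ρ g (m u v)) ∧ ∀ m' : V →ₗ[F] V →ₗ[F] V,
        (∀ (g : G) (u v : V), m' (ρ g u) (ρ g v) = ρ g (m' u v)) → ∃ c : F, m' = c • m

theorem NP.transport {F G V G' V' : Type*} [Field F] [Group G] [AddCommGroup V] [Module F V] [Group G']
    [AddCommGroup V'] [Module F V'] {ρ : Representation F G V} (h : NP ρ) (φ : G' ≃* G) (E : V ≃ₗ[F] V') :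
    ∃ ρ' : Representation F G' V', NP ρ' := by
  obtain ⟨h1, h2, ⟨B, b1, b2, b3⟩, m, m1, m2, m3, m4⟩ := h
  let ρ' : Representation F G' V' := E.conjRingEquiv.toMonoidHom.comp (MonoidHom.comp ρ φ.toMonoidHom)
  have e : ∀ g v, ρ' g v = E (ρ (φ g) (E.symm v)) := fun _ _ => rfl
  refine ⟨ρ', E.conjRingEquiv.injective.comp (h1.comp φ.injective), fun W hW => ?_,
    ⟨B.compl₁₂ E.symm.toLinearMap E.symm.toLinearMap, fun c => b1 (LinearMap.ext₂ fun u v => ?_),
      fun u v => b2 _ _, fun g u v => ?_⟩,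
    (m.compl₁₂ E.symm.toLinearMap E.symm.toLinearMap).compr₂ E.toLinearMap,
    fun c => m1 (LinearMap.ext₂ fun u v => ?_), fun u v => congrArg E (m2 _ _), fun g u v => ?_,
    fun m' hm => ?_⟩
  · refine (h2 (W.comap E.toLinearMap) fun g => ?_).imp (fun c => ?_) fun c => ?_
    · rintro _ ⟨v, hv, rfl⟩
      simpa [e] using hW (φ.symm g) ⟨E v, hv, rfl⟩
    · exact eq_bot_iff.2 fun v hv => by simpa using c.le (show E.symm v ∈ W.comap E.toLinearMap by simpa using hv)
    · exact eq_top_iff.2 fun v _ => by simpa using c.ge (Submodule.mem_top (x := E.symm v))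
  · simpa using LinearMap.congr_fun₂ c (E u) (E v)
  · simp [e, b3]
  · simpa using LinearMap.congr_fun₂ c (E u) (E v)
  · simp [e, m3]
  · obtain ⟨c, hc⟩ := m4 ((m'.compl₁₂ E.toLinearMap E.toLinearMap).compr₂ E.symm.toLinearMap) fun g u v => by
      simpa [e, LinearEquiv.symm_apply_eq] using hm (φ.symm g) (E u) (E v)
    refine ⟨c, LinearMap.ext₂ fun u v => ?_⟩
    simpa [LinearEquiv.symm_apply_eq] using LinearMap.congr_fun₂ hc (E.symm u) (E.symm v)

variable {F : Type*} [Field F] [Big F]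

theorem LL_add (b c : B F) : LL (sM (b + c)) (ph (b + c)) = LL (sM b) (ph b) + LL (sM c) (ph c) := by
  simp only [LL, sM_add, ph_add, trace_add, mul_add, add_smul, smul_add, Finset.sum_add_distrib, kronecker_add]
  abel

theorem LL_smul (t : F) (b : B F) : LL (sM (t • b)) (ph (t • b)) = t • LL (sM b) (ph b) := by
  rw [LL, LL, smul_add, Finset.smul_sum, ← kronecker_smul, sM_smul, trace_smul]
  congr 1
  · rw [smul_add, smul_comm, smul_smul t (24 * _), smul_eq_mul, mul_left_comm]
  · exact Finset.sum_congr rfl fun r _ => by rw [ph_smul, smul_smul, mul_left_comm]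

/-- a trilinear form whose diagonal is the cubic form -/
noncomputable def TT (a b c : B F) : F :=
  512 * trace (sM a * sM b * sM c) + 24 * ∑ r ∈ M2, (vF F r ⬝ᵥ sM a *ᵥ vF F r) * (ph b r * ph c r) +
    64 * T3 (ph a) (ph b) (ph c) + uu a ⬝ᵥ LL (sM b) (ph b) *ᵥ uu c

variable (F) in
/-- the same as a linear map -/
noncomputable def TL : B F →ₗ[F] B F →ₗ[F] B F →ₗ[F] F where
  toFun a := LinearMap.mk₂ F (TT a)
    (fun b b' c => by
      simp only [TT, LL_add]
      simp only [T3, sM_add, ph_add, trace_add, mul_add, add_mul, Finset.sum_add_distrib, add_mulVec,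
        dotProduct_add]
      ring)
    (fun t b c => by
      simp only [TT, LL_smul]
      simp only [T3, sM_smul, ph_smul, Matrix.mul_smul, Matrix.smul_mul, trace_smul, smul_mulVec,
        dotProduct_smul, smul_eq_mul, mul_assoc, mul_left_comm _ t, ← Finset.mul_sum]
      ring)
    (fun b c c' => by
      simp only [TT, T3, sM_add, ph_add, uu_add, trace_add, mul_add, Finset.sum_add_distrib, mulVec_add,
        dotProduct_add]
      ring)
    fun t b c => by
      simp only [TT, T3, sM_smul, ph_smul, uu_smul, Matrix.mul_smul, trace_smul, mulVec_smul,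
        dotProduct_smul, smul_eq_mul, mul_assoc, mul_left_comm _ t, ← Finset.mul_sum]
      ring
  map_add' a a' := LinearMap.ext₂ fun b c => by
    simp only [LinearMap.add_apply, LinearMap.mk₂_apply, TT, T3, sM_add, ph_add, uu_add, trace_add, mul_add,
      add_mul, Finset.sum_add_distrib, add_mulVec, dotProduct_add, add_dotProduct]
    ring
  map_smul' t a := LinearMap.ext₂ fun b c => by
    simp only [LinearMap.smul_apply, LinearMap.mk₂_apply, RingHom.id_apply, TT, T3, sM_smul, ph_smul, uu_smul,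
      Matrix.smul_mul, trace_smul, smul_mulVec, dotProduct_smul, smul_dotProduct, smul_eq_mul, mul_assoc,
      mul_left_comm _ t, ← Finset.mul_sum]
    ring

theorem TL_apply (a b c : B F) : TL F a b c = TT a b c := rfl
theorem Phi_TL (b : B F) : Phi b = TL F b b b := by simp only [TL_apply, Phi, TT, sq]

variable (F) in
/-- the polarised cubic form as a linear map -/
noncomputable def SL : B F →ₗ[F] B F →ₗ[F] B F →ₗ[F] F :=
  TL F + LinearMap.lflip.toLinearMap ∘ₗ TL F + (TL F).flip + LinearMap.lflip.toLinearMap ∘ₗ (TL F).flip +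
    (LinearMap.lflip.toLinearMap ∘ₗ TL F).flip +
      LinearMap.lflip.toLinearMap ∘ₗ (LinearMap.lflip.toLinearMap ∘ₗ TL F).flip

theorem SL_apply (a b c : B F) : SL F a b c =
    TL F a b c + TL F a c b + TL F b a c + TL F c a b + TL F b c a + TL F c b a := rfl
theorem SL_eq (a b c : B F) : SL F a b c = Tr a b c := by
  simp only [SL_apply, Tr, Phi_TL, map_add, LinearMap.add_apply]; ring
theorem SL_comm (a b : B F) : SL F a b = SL F b a :=
  LinearMap.ext fun c => by rw [SL_apply, SL_apply]; ring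

theorem SL_sxx {s : Matrix GolayPt GolayPt F} (hs : sᵀ = s) {r : Vec} (hr : IsMin r) :
    SL F (mk s 0 0) (xr F r) (xr F r) = 96 * (vF F r ⬝ᵥ s *ᵥ vF F r) := by
  have e : ∑ v ∈ M2, _ * ph (xr F r) v = _ :=
    Cen1.sum_ph_del hr (fun v => (vF F v ⬝ᵥ s *ᵥ vF F v) * ph (xr F r) v) (by simp only [Cen1.q_neg, ph_neg])
  simp only [ph_xr _ hr, del_self, mul_one, mul_assoc] at e
  simp only [SL_apply, TL_apply, TT, T3, sM_xr, uu_xr, sM_mk hs, ph_mk_zero, uu_mk, Matrix.mul_zero,
    Matrix.zero_mul, trace_zero, mul_zero, zero_mul, Finset.sum_const_zero, zero_mulVec, dotProduct_zero,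
    zero_dotProduct, add_zero, zero_add]
  linear_combination 48 * e

variable (F) in
/-- the projection on the vectors of trace zero -/
noncomputable def pj : B F →ₗ[F] LinearMap.ker (trL F) :=
  (LinearMap.id - ((24 : F)⁻¹ • trL F).smulRight (eB F)).codRestrict _ fun b => by
    have := big_ne (F := F) 24
    rw [LinearMap.mem_ker, LinearMap.sub_apply, map_sub, LinearMap.smulRight_apply, map_smul, trL_eB,
      LinearMap.smul_apply, LinearMap.id_apply, smul_eq_mul, smul_eq_mul]
    push_cast at this; field_simp; ring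

theorem pj_val (b : B F) : (pj F b : B F) = b - ((24 : F)⁻¹ * trace (sM b)) • eB F := rfl
theorem pj_coe (v : LinearMap.ker (trL F)) : pj F v = v :=
  Subtype.ext (by rw [pj_val, show trace (sM (v : B F)) = 0 from v.2, mul_zero, zero_smul, sub_zero])
theorem pj_eB : pj F (eB F) = 0 := Subtype.ext (by
  rw [pj_val, show trace (sM (eB F)) = 24 from trL_eB, inv_mul_cancel₀ (by simpa using big_ne (F := F) 24),
    one_smul, sub_self]; rfl)
theorem rho_val (g : GG F) (v : LinearMap.ker (trL F)) : (rho F g v : B F) = g.1 v := rfl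
theorem pj_rho (g : GG F) (b : B F) : pj F (g.1 b) = rho F g (pj F b) :=
  Subtype.ext (by rw [rho_val, pj_val, pj_val, map_sub, map_smul, fix_eB g.2, trace_GG g.2])
theorem Nb_pj (a b : B F) : Nb (pj F a : B F) b = Nb a (pj F b : B F) := by
  rw [pj_val, pj_val, ← NB_apply, ← NB_apply, map_sub, map_sub, LinearMap.sub_apply, map_smul, map_smul,
    LinearMap.smul_apply, NB_apply, NB_apply, NB_apply, Nb_comm (eB F), Nb_eB, Nb_eB, smul_eq_mul, smul_eq_mul]
  ring

/-- the trilinear form of a product -/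
noncomputable def tri (m : LinearMap.ker (trL F) →ₗ[F] LinearMap.ker (trL F) →ₗ[F] LinearMap.ker (trL F)) :
    B F →ₗ[F] B F →ₗ[F] B F →ₗ[F] F := (m.compl₁₂ (pj F) (pj F)).compr₂ (NB F ∘ₗ Submodule.subtype _)

theorem tri_apply (m : LinearMap.ker (trL F) →ₗ[F] LinearMap.ker (trL F) →ₗ[F] LinearMap.ker (trL F))
    (a b c : B F) : tri m a b c = Nb (m (pj F a) (pj F b) : B F) c := rfl

theorem inv_tri {m : LinearMap.ker (trL F) →ₗ[F] LinearMap.ker (trL F) →ₗ[F] LinearMap.ker (trL F)}
    (hm : ∀ g u v, m (rho F g u) (rho F g v) = rho F g (m u v)) : Inv (tri m) := by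
  refine ⟨fun h p a b c => ?_, fun b c => ?_, fun a c => ?_, fun a b => ?_⟩
  · obtain ⟨g, e⟩ := exists_GG' h p
    rw [tri_apply, tri_apply, ← e, ← e, ← e, pj_rho, pj_rho, hm, rho_val, Nb_GG g.2]
  · rw [tri_apply, pj_eB, map_zero]; exact (NB F).map_zero₂ _
  · rw [tri_apply, pj_eB, map_zero]; exact (NB F).map_zero₂ _
  · rw [tri_apply, Nb_eB, show trace (sM (m (pj F a) (pj F b) : B F)) = 0 from (m (pj F a) (pj F b)).2, mul_zero]

theorem uniq {r0 s0 : Vec} (h1 : IsMin r0) (h2 : IsMin s0) (h3 : dotInt r0 s0 = -16)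
    {m m' : LinearMap.ker (trL F) →ₗ[F] LinearMap.ker (trL F) →ₗ[F] LinearMap.ker (trL F)}
    (hm : Inv (tri m)) (hm' : Inv (tri m')) {t : F}
    (h4 : tri m' (xr F r0) (xr F s0) (xr F (r0 + s0)) = t * tri m (xr F r0) (xr F s0) (xr F (r0 + s0))) :
    m' = t • m := by
  have e : ∀ a b c, (tri m' + (-t) • tri m) a b c = tri m' a b c - t * tri m a b c := fun _ _ _ => by
    rw [sub_eq_add_neg, ← neg_mul]; rfl
  have h : Inv (tri m' + (-t) • tri m) :=
    ⟨fun h p a b c => by rw [e, e, hm.inv h p, hm'.inv h p], fun b c => by rw [e, hm.e1, hm'.e1, mul_zero, sub_zero],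
      fun b c => by rw [e, hm.e2, hm'.e2, mul_zero, sub_zero], fun b c => by rw [e, hm.e3, hm'.e3, mul_zero, sub_zero]⟩
  refine LinearMap.ext₂ fun u v => Subtype.ext (sub_eq_zero.1 (eq_zero_of_Nb fun c => ?_))
  have := (e u v c).symm.trans (LinearMap.congr_fun (LinearMap.congr_fun₂
    (h.zero (h.x3 h1 h2 h3 ((e _ _ _).trans (sub_eq_zero.2 h4)))) u v) c)
  rw [tri_apply, tri_apply, pj_coe, pj_coe] at this
  rw [sub_eq_add_neg, Nb_add, LinearMap.smul_apply, LinearMap.smul_apply, Submodule.coe_smul, ← neg_smul, Nb_smul,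
    neg_mul, ← sub_eq_add_neg]
  exact this

theorem norton : NP (F := F) (rho F) := by
  obtain ⟨r, hr⟩ := exists_min
  let m : LinearMap.ker (trL F) →ₗ[F] LinearMap.ker (trL F) →ₗ[F] LinearMap.ker (trL F) :=
    ((SL F).compl₁₂ (Submodule.subtype _) (Submodule.subtype _)).compr₂
      (pj F ∘ₗ ((NB F).toDual NB_nondeg).symm.toLinearMap)
  have m0 : ∀ u v c, Nb (m u v : B F) c = SL F u v (pj F c) := fun u v c =>
    (Nb_pj _ c).trans (LinearMap.BilinForm.apply_toDual_symm_apply (B := NB F) (hB := NB_nondeg) _ _)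
  have m1 : ∀ g u v, m (rho F g u) (rho F g v) = rho F g (m u v) := fun g u v =>
    Subtype.ext (sub_eq_zero.1 (eq_zero_of_Nb fun c => by
      obtain ⟨c, rfl⟩ := g.1.surjective c
      rw [← NB_apply, map_sub, LinearMap.sub_apply, NB_apply, NB_apply, m0, pj_rho, rho_val, rho_val, rho_val,
        rho_val, Nb_GG g.2, m0, SL_eq, SL_eq, Tr_GG g.2, sub_self]))
  have tx : ∀ r, xr F r ∈ LinearMap.ker (trL F) := fun r => (congrArg trace (sM_xr r)).trans (trace_zero _ _)
  have m2 : m ≠ 0 := fun c => by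
    have ts : trace (single none (some 0) 1 + (single none (some 0) 1)ᵀ : Matrix GolayPt GolayPt F) = 0 := by
      simp [trace_add]
    have := sym_ext (F := F) (sym_add (single none (some 0) 1)) transpose_zero fun r hr => by
      have := m0 ⟨mk _ 0 0, (congrArg trace (sM_mk (sym_add _) _ _)).trans ts⟩ ⟨_, tx r⟩ (xr F r)
      rw [c, show (pj F (xr F r) : B F) = xr F r from congrArg _ (pj_coe ⟨_, tx r⟩), SL_sxx (sym_add _) hr,
        eq_comm] at this
      rw [zero_mulVec, dotProduct_zero]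
      exact (mul_eq_zero.1 (this.trans ((NB F).map_zero₂ _))).resolve_left (by simpa using big_ne (F := F) 96)
    simpa using congrFun₂ this none (some 0)
  have h1 : IsMin (vec (none, 0) + vec (some 0, 0)) := isMin_vec.2 (by decide)
  have h2 : IsMin (vec (none, 1) + vec (some 1, 0)) := isMin_vec.2 (by decide)
  have h3 : dotInt (vec (none, 0) + vec (some 0, 0)) (vec (none, 1) + vec (some 1, 0)) = -16 := by
    decide +kernel
  refine ⟨rho_inj, fun W hW => ?_, ⟨(NB F).compl₁₂ (Submodule.subtype _) (Submodule.subtype _), fun c => ?_,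
    fun u v => Nb_comm _ _, fun g u v => Nb_GG g.2 _ _⟩, m, m2, fun u v => ?_, m1, fun m' hm => ?_⟩
  · refine (irr (W := W.map (Submodule.subtype _)) (fun h p => ?_) (Submodule.map_subtype_le _ _)).imp
      (fun c => ?_) fun c => ?_
    · rintro _ ⟨w, hw, rfl⟩
      obtain ⟨g, e⟩ := exists_GG' h p
      exact ⟨rho F g w, hW g ⟨w, hw, rfl⟩, e w⟩
    · exact (Submodule.map_injective_of_injective (Submodule.injective_subtype _)) (c.trans (Submodule.map_bot _).symm)
    · exact (Submodule.map_injective_of_injective (Submodule.injective_subtype _))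
        (c.trans (Submodule.map_subtype_top _).symm)
  · have : Nb (xr F r) (xr F r) = 0 := LinearMap.congr_fun₂ c ⟨_, tx r⟩ ⟨_, tx r⟩
    rw [Nb_xr hr, ph_xr _ hr, del_self, mul_one] at this
    exact two_ne this
  · exact congrArg (fun l => pj F (((NB F).toDual NB_nondeg).symm l)) (SL_comm (u : B F) v)
  · refine ⟨_, uniq h1 h2 h3 (inv_tri m1) (inv_tri hm) (div_mul_cancel₀ _ fun k => m2 ?_).symm⟩
    exact (uniq h1 h2 h3 (inv_tri m1) (inv_tri m1) (k.trans (zero_mul _).symm)).trans (zero_smul _ _)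

end Cfsg.Agent.H97.GA.Np
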